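import Cfsg.Agent.H824.E7.Cross
import Cfsg.Agent.H130.E7.Own
import Cfsg.Agent.H564.U.F4

/-!
# Covers of `E₇(q)`, `p = 2` or `p ≥ 7` (helper824)

`cov` : `H373.Recog.Cov (chevE7.group F)` if `E₇(q)` has no elements of order `3 p r`, `r` a prime with `od_r(q) = 12`.
-/

set_option autoImplicit false
set_option linter.unusedSectionVars false

namespace Cfsg.Agent.H824.E7.Cov

open Cfsg Cfsg.Lie Cfsg.Agent.H425.KFix

universe u v

variable {F : Type u} [Field F] [Finite F]

/-- a vector fixed by `x`, in the language of endomorphisms -/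
theorem exists_fixed {L : Type u} [Group L] {p : ℕ} {x : L} (h : FixAll.{v} p x) (V : Type v)
    [AddCommGroup V] [Finite V] [Nontrivial V] (hV : ∀ v : V, p • v = 0) (φ : L →* AddMonoid.End V) :
    ∃ v : V, v ≠ 0 ∧ φ x v = v := by
  obtain ⟨_⟩ : Nonempty (Module (ZMod p) V) := ⟨AddCommGroup.zmodModule hV⟩
  have hinv : ∀ (g : L) (v : V), φ g⁻¹ (φ g v) = v := by
    intro g v
    have h1 : φ g⁻¹ * φ g = 1 := by rw [← map_mul, inv_mul_cancel, map_one]
    exact DFunLike.congr_fun h1 v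
  let ρ : L →* (V ≃ₗ[ZMod p] V) := MonoidHom.mk' (fun g =>
    { toFun := φ g
      invFun := φ g⁻¹
      left_inv := hinv g
      right_inv := fun v => by
        have h1 := hinv g⁻¹ v
        rwa [inv_inv] at h1
      map_add' := map_add (φ g)
      map_smul' := fun c v => ZMod.map_smul (φ g) c v }) fun g g' => by
        apply LinearEquiv.ext
        intro v
        exact DFunLike.congr_fun (map_mul φ g g') v
  obtain ⟨w, hw, hw'⟩ := h V ρ
  exact ⟨w, hw, hw'⟩

/-- **covers** -/
theorem cov (p : ℕ) [hpr : Fact p.Prime] [CharP F p] (hp : p = 2 ∨ 7 ≤ p)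
    (hno : ∀ r : ℕ, r.Prime → orderOf ((Nat.card F : ℕ) : ZMod r) = 12 →
      ¬ ∃ y : ↥(chevE7.group F), orderOf y = p * (3 * r)) : H373.Recog.Cov.{u, v} ↥(chevE7.group F) := by
  have _i := Fintype.ofFinite F
  refine Cross.cov_of p fun V _ _ _ hV φ _ => ?_
  have hq2 : 2 ≤ Nat.card F := by rw [Nat.card_eq_fintype_card]; exact Fintype.one_lt_card
  obtain ⟨r, hr, hor⟩ := Lib.Zsigmondy.exists_prime_orderOf (a := Nat.card F) (n := 12) hq2 (by omega) (by omega)
    (by omega)
  have hf := Tor.od_facts hr hor (by norm_num)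
  have hr3 : r ≠ 3 := by
    rintro rfl
    have := Nat.le_of_dvd (by norm_num) hf.2
    omega
  have hd : r ∣ Nat.card F ^ 12 - 1 := (Cross.dvd_iff_od (by omega)).2 (by rw [hor])
  obtain ⟨x, hx, hfix⟩ := H130.E7.own_E7.{u, v} hp F (fun x hx => H564.U.fixAll_F4 x hx) hr hr3 hd
  obtain ⟨w, hw, hw'⟩ := exists_fixed hfix V hV φ
  have hrp : r ≠ p := by
    rintro rfl
    obtain ⟨n, -, hn⟩ := FiniteField.card F r
    have h1 : ((Nat.card F : ℕ) : ZMod r) = 0 := by
      rw [Nat.card_eq_fintype_card, hn, Nat.cast_pow, ZMod.natCast_self, zero_pow n.ne_zero]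
    rw [h1] at hor
    have h2 : orderOf (0 : ZMod r) = 0 := by
      rw [orderOf_eq_zero_iff']
      intro k hk
      have := Fact.mk hr
      rw [zero_pow hk.ne']
      exact zero_ne_one
    omega
  refine ⟨x, w, H373.Recog.sum_ne_zero_of_fixed hpr.out hV φ hw hw' ?_, ?_⟩
  · rw [hx]
    intro h
    rcases hpr.out.dvd_mul.1 h with h | h
    · have := (Nat.prime_dvd_prime_iff_eq hpr.out Nat.prime_three).1 h
      omega
    · exact hrp ((Nat.prime_dvd_prime_iff_eq hpr.out hr).1 h).symm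
  · rw [hx]
    exact hno r hr hor

end Cfsg.Agent.H824.E7.Cov
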